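import Cfsg.Agent.Lib.ToddCox.ONO.Low
import Cfsg.Agent.Lib.ToddCox.Base
set_option autoImplicit false
set_option maxRecDepth 100000
namespace Cfsg.Agent.Lib.ToddCox.ONO

def baseL : List ℕ := [0, 1, 21]

theorem word_one_of {ρ : PresentedGroup Cfsg.Agent.Lib.ToddCox.ON122760.rels →* Equiv.Perm (Fin 122760)}
    (hρ : ∀ r (i : Fin 122760), ((ρ (PresentedGroup.mk Cfsg.Agent.Lib.ToddCox.ON122760.rels r) i : Fin 122760) : ℕ) = tabW Cfsg.Agent.Lib.ToddCox.ON122760.tab (relW Cfsg.Agent.Lib.ToddCox.ON122760.sg r) i)
    (hinj : Function.Injective ρ) (hcard : Nat.card (PresentedGroup Cfsg.Agent.Lib.ToddCox.ON122760.rels) = 460815505920)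
    {w : List ℕ} (hw : ∀ a ∈ w, a < 8) (hb : ∀ b ∈ baseL, tabW Cfsg.Agent.Lib.ToddCox.ON122760.tab w b = b) : wordVal gen w = 1 := by
  have hel : ∀ w ∈ L, ∀ i : Fin 122760, (((fun w => ρ (wordVal gen w)) w i : Fin 122760) : ℕ) = tabW Cfsg.Agent.Lib.ToddCox.ON122760.tab w i :=
    fun w hw i => rep_word hρ hLT (hLm w hw) i
  have s0 : sgsG (fun w => ρ (wordVal gen w)) L 0 ≤ ρ.range := by
    unfold sgsG
    rw [Subgroup.closure_le]
    rintro _ ⟨w, _, rfl⟩
    exact ⟨_, rfl⟩
  have cK0 : Nat.card ρ.range = 460815505920 := by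
    rw [← hcard]
    exact Nat.card_congr (MonoidHom.ofInjective hinj).symm.toEquiv
  have hb0 : 0 < 122760 := by norm_num
  have c0 : ∀ k, k < 122760 → chkOrbPos Cfsg.Agent.Lib.ToddCox.ON122760.tab L 0 0 122760 122760 (fun q => orbR (Nat.add 0 q)) k = true :=
    defs_of_bits 122760 11 60 (by norm_num) (by
      intro j hj
      interval_cases j
      · exact lv0_0
      · exact lv0_1
      · exact lv0_2
      · exact lv0_3
      · exact lv0_4
      · exact lv0_5
      · exact lv0_6
      · exact lv0_7
      · exact lv0_8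
      · exact lv0_9
      · exact lv0_10
      · exact lv0_11
      · exact lv0_12
      · exact lv0_13
      · exact lv0_14
      · exact lv0_15
      · exact lv0_16
      · exact lv0_17
      · exact lv0_18
      · exact lv0_19
      · exact lv0_20
      · exact lv0_21
      · exact lv0_22
      · exact lv0_23
      · exact lv0_24
      · exact lv0_25
      · exact lv0_26
      · exact lv0_27
      · exact lv0_28
      · exact lv0_29
      · exact lv0_30
      · exact lv0_31
      · exact lv0_32
      · exact lv0_33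
      · exact lv0_34
      · exact lv0_35
      · exact lv0_36
      · exact lv0_37
      · exact lv0_38
      · exact lv0_39
      · exact lv0_40
      · exact lv0_41
      · exact lv0_42
      · exact lv0_43
      · exact lv0_44
      · exact lv0_45
      · exact lv0_46
      · exact lv0_47
      · exact lv0_48
      · exact lv0_49
      · exact lv0_50
      · exact lv0_51
      · exact lv0_52
      · exact lv0_53
      · exact lv0_54
      · exact lv0_55
      · exact lv0_56
      · exact lv0_57
      · exact lv0_58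
      · exact lv0_59
      )
  have hb1 : 1 < 122760 := by norm_num
  have c1 : ∀ k, k < 58653 → chkOrbPos Cfsg.Agent.Lib.ToddCox.ON122760.tab L 7 1 58653 122760 (fun q => orbR (Nat.add 122760 q)) k = true :=
    defs_of_bits 58653 11 29 (by norm_num) (by
      intro j hj
      interval_cases j
      · exact lv1_0
      · exact lv1_1
      · exact lv1_2
      · exact lv1_3
      · exact lv1_4
      · exact lv1_5
      · exact lv1_6
      · exact lv1_7
      · exact lv1_8
      · exact lv1_9
      · exact lv1_10
      · exact lv1_11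
      · exact lv1_12
      · exact lv1_13
      · exact lv1_14
      · exact lv1_15
      · exact lv1_16
      · exact lv1_17
      · exact lv1_18
      · exact lv1_19
      · exact lv1_20
      · exact lv1_21
      · exact lv1_22
      · exact lv1_23
      · exact lv1_24
      · exact lv1_25
      · exact lv1_26
      · exact lv1_27
      · exact lv1_28
      )
  have hb2 : 21 < 122760 := by norm_num
  have c2 : ∀ k, k < 64 → chkOrbPos Cfsg.Agent.Lib.ToddCox.ON122760.tab L 13 21 64 122760 (fun q => orbR (Nat.add 181413 q)) k = true :=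
    defs_of_bits 64 11 1 (by norm_num) (by
      intro j hj
      interval_cases j
      · exact lv2_0
      )
  have l0 := level_bound_K hb0 hel c0 s0
  have s1 := sgs_le_fixP hb0 (by norm_num : 0 ≤ 7) hel fx0 s0
  have l1 := level_bound_K hb1 hel c1 s1
  have s2 := sgs_le_fixP hb1 (by norm_num : 7 ≤ 13) hel fx1 s1
  have l2 := level_bound_K hb2 hel c2 s2
  have s3 := sgs_le_fixP hb2 (by norm_num : 13 ≤ 17) hel fx2 s2
  rw [cK0] at l0
  have p0 := l0
  have p1 := chain_mul p0 l1
  have p2 := chain_mul p1 l2
  have hM : 460815505920 * _ ≤ 460815505920 := (by norm_num : 122760*58653*64 = 460815505920) ▸ p2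
  have m0 : ρ (wordVal gen w) ∈ ρ.range := ⟨_, rfl⟩
  have m1 := (mem_fixP (x := ⟨0, hb0⟩)).mpr ⟨m0, Fin.ext (by rw [rep_word hρ hLT hw]; exact hb 0 (by decide +kernel))⟩
  have m2 := (mem_fixP (x := ⟨1, hb1⟩)).mpr ⟨m1, Fin.ext (by rw [rep_word hρ hLT hw]; exact hb 1 (by decide +kernel))⟩
  have m3 := (mem_fixP (x := ⟨21, hb2⟩)).mpr ⟨m2, Fin.ext (by rw [rep_word hρ hLT hw]; exact hb 21 (by decide +kernel))⟩
  have h1 := eq_one_of_card_le (by norm_num) hM m3
  exact hinj (by rw [h1, map_one])

end Cfsg.Agent.Lib.ToddCox.ONO
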