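import Cfsg.Agent.Lib.ToddCox.ONO.Lv0
set_option autoImplicit false
set_option maxRecDepth 100000
namespace Cfsg.Agent.Lib.ToddCox.ONO

abbrev gen : ℕ → PresentedGroup Cfsg.Agent.Lib.ToddCox.ON122760.rels := genP Cfsg.Agent.Lib.ToddCox.ON122760.rels Cfsg.Agent.Lib.ToddCox.ON122760.LT

theorem hLT : ∀ y, y < 8 → relW Cfsg.Agent.Lib.ToddCox.ON122760.sg (Cfsg.Agent.Lib.ToddCox.ON122760.LT.getD y 1) = [y] := by decide +kernel
theorem hLm : ∀ w ∈ L, ∀ a ∈ w, a < 8 := by decide +kernel
theorem low {ρ : PresentedGroup Cfsg.Agent.Lib.ToddCox.ON122760.rels →* Equiv.Perm (Fin 122760)}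
    (hρ : ∀ r (i : Fin 122760), ((ρ (PresentedGroup.mk Cfsg.Agent.Lib.ToddCox.ON122760.rels r) i : Fin 122760) : ℕ) = tabW Cfsg.Agent.Lib.ToddCox.ON122760.tab (relW Cfsg.Agent.Lib.ToddCox.ON122760.sg r) i) :
    460815505920 ≤ Nat.card (sgsG (fun w => ρ (wordVal gen w)) L 0) := by
  have hel : ∀ w ∈ L, ∀ i : Fin 122760, (((fun w => ρ (wordVal gen w)) w i : Fin 122760) : ℕ) = tabW Cfsg.Agent.Lib.ToddCox.ON122760.tab w i :=
    fun w hw i => rep_word hρ hLT (hLm w hw) i
  have h3 : 1 ≤ Nat.card (sgsG (fun w => ρ (wordVal gen w)) L 17) := sgsG_pos _ _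
  have c2 : ∀ k, k < 64 → chkOrbPos Cfsg.Agent.Lib.ToddCox.ON122760.tab L 13 21 64 122760 (fun q => orbR (Nat.add 181413 q)) k = true :=
    defs_of_bits 64 11 1 (by norm_num) (by
      intro j hj
      interval_cases j
      · exact lv2_0
      )
  have h2 : 64 * 1 ≤ Nat.card (sgsG (fun w => ρ (wordVal gen w)) L 13) :=
    le_trans (Nat.mul_le_mul_left 64 h3) (level_bound (by norm_num) (by norm_num) hel fx2 c2)
  norm_num at h2
  have c1 : ∀ k, k < 58653 → chkOrbPos Cfsg.Agent.Lib.ToddCox.ON122760.tab L 7 1 58653 122760 (fun q => orbR (Nat.add 122760 q)) k = true :=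
    defs_of_bits 58653 11 29 (by norm_num) (by
      intro j hj
      interval_cases j
      · exact lv1_0
      · exact lv1_1
      · exact lv1_2
      · exact lv1_3
      · exact lv1_4
      · exact lv1_5
      · exact lv1_6
      · exact lv1_7
      · exact lv1_8
      · exact lv1_9
      · exact lv1_10
      · exact lv1_11
      · exact lv1_12
      · exact lv1_13
      · exact lv1_14
      · exact lv1_15
      · exact lv1_16
      · exact lv1_17
      · exact lv1_18
      · exact lv1_19
      · exact lv1_20
      · exact lv1_21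
      · exact lv1_22
      · exact lv1_23
      · exact lv1_24
      · exact lv1_25
      · exact lv1_26
      · exact lv1_27
      · exact lv1_28
      )
  have h1 : 58653 * 64 ≤ Nat.card (sgsG (fun w => ρ (wordVal gen w)) L 7) :=
    le_trans (Nat.mul_le_mul_left 58653 h2) (level_bound (by norm_num) (by norm_num) hel fx1 c1)
  norm_num at h1
  have c0 : ∀ k, k < 122760 → chkOrbPos Cfsg.Agent.Lib.ToddCox.ON122760.tab L 0 0 122760 122760 (fun q => orbR (Nat.add 0 q)) k = true :=
    defs_of_bits 122760 11 60 (by norm_num) (by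
      intro j hj
      interval_cases j
      · exact lv0_0
      · exact lv0_1
      · exact lv0_2
      · exact lv0_3
      · exact lv0_4
      · exact lv0_5
      · exact lv0_6
      · exact lv0_7
      · exact lv0_8
      · exact lv0_9
      · exact lv0_10
      · exact lv0_11
      · exact lv0_12
      · exact lv0_13
      · exact lv0_14
      · exact lv0_15
      · exact lv0_16
      · exact lv0_17
      · exact lv0_18
      · exact lv0_19
      · exact lv0_20
      · exact lv0_21
      · exact lv0_22
      · exact lv0_23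
      · exact lv0_24
      · exact lv0_25
      · exact lv0_26
      · exact lv0_27
      · exact lv0_28
      · exact lv0_29
      · exact lv0_30
      · exact lv0_31
      · exact lv0_32
      · exact lv0_33
      · exact lv0_34
      · exact lv0_35
      · exact lv0_36
      · exact lv0_37
      · exact lv0_38
      · exact lv0_39
      · exact lv0_40
      · exact lv0_41
      · exact lv0_42
      · exact lv0_43
      · exact lv0_44
      · exact lv0_45
      · exact lv0_46
      · exact lv0_47
      · exact lv0_48
      · exact lv0_49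
      · exact lv0_50
      · exact lv0_51
      · exact lv0_52
      · exact lv0_53
      · exact lv0_54
      · exact lv0_55
      · exact lv0_56
      · exact lv0_57
      · exact lv0_58
      · exact lv0_59
      )
  have h0 : 122760 * 3753792 ≤ Nat.card (sgsG (fun w => ρ (wordVal gen w)) L 0) :=
    le_trans (Nat.mul_le_mul_left 122760 h1) (level_bound (by norm_num) (by norm_num) hel fx0 c0)
  norm_num at h0
  exact h0
end Cfsg.Agent.Lib.ToddCox.ONO
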