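import Cfsg.Agent.Lib.ToddCox.ONO.BaseL
import Cfsg.Agent.Lib.ToddCox.ONC0.Step
import Cfsg.Agent.Lib.ToddCox.ONC1.Step
import Cfsg.Agent.Lib.ToddCox.ONC2.Step
import Cfsg.Agent.Lib.ToddCox.ONO.Low
import Cfsg.Agent.Lib.ToddCox.ONX.Cert
set_option autoImplicit false
set_option maxRecDepth 100000
namespace Cfsg.Agent.Lib.ToddCox.ONO

theorem hTop : ∀ x, Cfsg.Agent.Lib.ToddCox.ON122760.sg x true ∈ Cfsg.Agent.Lib.ToddCox.ONC0.Js := by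
  intro x
  cases x <;> decide +kernel
theorem hTopLT : ∀ x, Cfsg.Agent.Lib.ToddCox.ON122760.LT.getD (Cfsg.Agent.Lib.ToddCox.ON122760.sg x true) 1 = FreeGroup.of x := by
  intro x
  cases x <;> decide +kernel
theorem card_bd : 0 < Nat.card (PresentedGroup Cfsg.Agent.Lib.ToddCox.ON122760.rels) ∧ Nat.card (PresentedGroup Cfsg.Agent.Lib.ToddCox.ON122760.rels) ≤ 460815505920 := by
  have h2 : 0 < Nat.card (letSub gen Cfsg.Agent.Lib.ToddCox.ONC2.Js) ∧ Nat.card (letSub gen Cfsg.Agent.Lib.ToddCox.ONC2.Js) ≤ 144 * 1 :=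
    card_le_of_chain Cfsg.Agent.Lib.ToddCox.ONC2.le Cfsg.Agent.Lib.ToddCox.ONC2.step card_letSub_nil
  have h1 : 0 < Nat.card (letSub gen Cfsg.Agent.Lib.ToddCox.ONC1.Js) ∧ Nat.card (letSub gen Cfsg.Agent.Lib.ToddCox.ONC1.Js) ≤ 26068 * (144 * 1) :=
    card_le_of_chain Cfsg.Agent.Lib.ToddCox.ONC1.le Cfsg.Agent.Lib.ToddCox.ONC1.step h2
  have h0 : 0 < Nat.card (letSub gen Cfsg.Agent.Lib.ToddCox.ONC0.Js) ∧ Nat.card (letSub gen Cfsg.Agent.Lib.ToddCox.ONC0.Js) ≤ 122760 * (26068 * (144 * 1)) :=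
    card_le_of_chain Cfsg.Agent.Lib.ToddCox.ONC0.le Cfsg.Agent.Lib.ToddCox.ONC0.step h1
  rw [show letSub gen Cfsg.Agent.Lib.ToddCox.ONC0.Js = ⊤ from letSub_top hTop hTopLT, Subgroup.card_top] at h0
  norm_num at h0
  exact h0

abbrev x : PresentedGroup Cfsg.Agent.Lib.ToddCox.ON122760.rels := wordVal gen Cfsg.Agent.Lib.ToddCox.ONX.xw

theorem xR : ∀ w ∈ Cfsg.Agent.Lib.ToddCox.ONX.Rb, w = Cfsg.Agent.Lib.ToddCox.ONX.xw ∨ w ∈ Cfsg.Agent.Lib.ToddCox.ON122760.RL.map (relW Cfsg.Agent.Lib.ToddCox.ON122760.sg) ∨ freeVal Cfsg.Agent.Lib.ToddCox.ON122760.LT w = 1 := by decide +kernel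
theorem xHl : Cfsg.Agent.Lib.ToddCox.ONX.Hl = [] := rfl
theorem hcl : Subgroup.normalClosure {x} = ⊤ :=
  normalClosure_top_of_cert gen x Cfsg.Agent.Lib.ToddCox.ONX.inv Cfsg.Agent.Lib.ToddCox.ON122760.letters.genInv Cfsg.Agent.Lib.ToddCox.ONX.Eo Cfsg.Agent.Lib.ToddCox.ONX.W Cfsg.Agent.Lib.ToddCox.ONX.isH (fun y hy => invOf_lt _ hy) Cfsg.Agent.Lib.ToddCox.ONX.Eo_lt
    (genP_id (by decide +kernel)) Cfsg.Agent.Lib.ToddCox.ONX.Rb (by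
      intro w hw
      rcases xR w hw with h | h
      · rw [h]
        exact Subgroup.subset_normalClosure rfl
      · rw [Cfsg.Agent.Lib.ToddCox.ON122760.letters.word h]
        exact Subgroup.one_mem _)
    Cfsg.Agent.Lib.ToddCox.ONX.nW Cfsg.Agent.Lib.ToddCox.ONX.W_ge Cfsg.Agent.Lib.ToddCox.ONX.sp Cfsg.Agent.Lib.ToddCox.ONX.words (fun y => rfl) Cfsg.Agent.Lib.ToddCox.ONX.defs Cfsg.Agent.Lib.ToddCox.ONX.covered Cfsg.Agent.Lib.ToddCox.ONX.cF Cfsg.Agent.Lib.ToddCox.ONX.cF_zero Cfsg.Agent.Lib.ToddCox.ONX.cF_lt Cfsg.Agent.Lib.ToddCox.ONX.ys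
    (letSub_top (by intro x; cases x <;> decide +kernel) hTopLT) Cfsg.Agent.Lib.ToddCox.ONX.links

def xpow : List ℕ := [nat_lit 7, nat_lit 7, nat_lit 5, nat_lit 2, nat_lit 6, nat_lit 0, nat_lit 1, nat_lit 3, nat_lit 4, nat_lit 7, nat_lit 7, nat_lit 5, nat_lit 2, nat_lit 6, nat_lit 0, nat_lit 1, nat_lit 3, nat_lit 4, nat_lit 7, nat_lit 7, nat_lit 5, nat_lit 2, nat_lit 6, nat_lit 0, nat_lit 1, nat_lit 3, nat_lit 4, nat_lit 7, nat_lit 7, nat_lit 5, nat_lit 2, nat_lit 6, nat_lit 0, nat_lit 1, nat_lit 3, nat_lit 4, nat_lit 7, nat_lit 7, nat_lit 5, nat_lit 2, nat_lit 6, nat_lit 0, nat_lit 1, nat_lit 3, nat_lit 4, nat_lit 7, nat_lit 7, nat_lit 5, nat_lit 2, nat_lit 6, nat_lit 0, nat_lit 1, nat_lit 3, nat_lit 4, nat_lit 7, nat_lit 7, nat_lit 5, nat_lit 2, nat_lit 6, nat_lit 0, nat_lit 1, nat_lit 3, nat_lit 4, nat_lit 7, nat_lit 7, nat_lit 5, nat_lit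 2, nat_lit 6, nat_lit 0, nat_lit 1, nat_lit 3, nat_lit 4, nat_lit 7, nat_lit 7, nat_lit 5, nat_lit 2, nat_lit 6, nat_lit 0, nat_lit 1, nat_lit 3, nat_lit 4, nat_lit 7, nat_lit 7, nat_lit 5, nat_lit 2, nat_lit 6, nat_lit 0, nat_lit 1, nat_lit 3, nat_lit 4, nat_lit 7, nat_lit 7, nat_lit 5, nat_lit 2, nat_lit 6, nat_lit 0, nat_lit 1, nat_lit 3, nat_lit 4, nat_lit 7, nat_lit 7, nat_lit 5, nat_lit 2, nat_lit 6, nat_lit 0, nat_lit 1, nat_lit 3, nat_lit 4, nat_lit 7, nat_lit 7, nat_lit 5, nat_lit 2, nat_lit 6, nat_lit 0, nat_lit 1, nat_lit 3, nat_lit 4, nat_lit 7, nat_lit 7, nat_lit 5, nat_lit 2, nat_lit 6, nat_lit 0, nat_lit 1, nat_lit 3, nat_lit 4, nat_lit 7, nat_lit 7, nat_lit 5, nat_lit 2, nat_lit 6, nat_lit 0, nat_lit 1, nat_lit 3, nat_lit 4, nat_lit 7, nat_lit 7, nat_lit 5, nat_lit 2, nat_lit 6, nat_lit 0, nat_lit 1, nat_lit 3, nat_lit 4, nat_lit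 7, nat_lit 7, nat_lit 5, nat_lit 2, nat_lit 6, nat_lit 0, nat_lit 1, nat_lit 3, nat_lit 4, nat_lit 7, nat_lit 7, nat_lit 5, nat_lit 2, nat_lit 6, nat_lit 0, nat_lit 1, nat_lit 3, nat_lit 4, nat_lit 7, nat_lit 7, nat_lit 5, nat_lit 2, nat_lit 6, nat_lit 0, nat_lit 1, nat_lit 3, nat_lit 4, nat_lit 7, nat_lit 7, nat_lit 5, nat_lit 2, nat_lit 6, nat_lit 0, nat_lit 1, nat_lit 3, nat_lit 4, nat_lit 7, nat_lit 7, nat_lit 5, nat_lit 2, nat_lit 6, nat_lit 0, nat_lit 1, nat_lit 3, nat_lit 4, nat_lit 7, nat_lit 7, nat_lit 5, nat_lit 2, nat_lit 6, nat_lit 0, nat_lit 1, nat_lit 3, nat_lit 4, nat_lit 7, nat_lit 7, nat_lit 5, nat_lit 2, nat_lit 6, nat_lit 0, nat_lit 1, nat_lit 3, nat_lit 4, nat_lit 7, nat_lit 7, nat_lit 5, nat_lit 2, nat_lit 6, nat_lit 0, nat_lit 1, nat_lit 3, nat_lit 4, nat_lit 7, nat_lit 7, nat_lit 5, nat_lit 2, nat_lit 6, nat_lit 0, nat_lit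 1, nat_lit 3, nat_lit 4, nat_lit 7, nat_lit 7, nat_lit 5, nat_lit 2, nat_lit 6, nat_lit 0, nat_lit 1, nat_lit 3, nat_lit 4, nat_lit 7, nat_lit 7, nat_lit 5, nat_lit 2, nat_lit 6, nat_lit 0, nat_lit 1, nat_lit 3, nat_lit 4, nat_lit 7, nat_lit 7, nat_lit 5, nat_lit 2, nat_lit 6, nat_lit 0, nat_lit 1, nat_lit 3, nat_lit 4, nat_lit 7, nat_lit 7, nat_lit 5, nat_lit 2, nat_lit 6, nat_lit 0, nat_lit 1, nat_lit 3, nat_lit 4, nat_lit 7, nat_lit 7, nat_lit 5, nat_lit 2, nat_lit 6, nat_lit 0, nat_lit 1, nat_lit 3, nat_lit 4, nat_lit 7, nat_lit 7, nat_lit 5, nat_lit 2, nat_lit 6, nat_lit 0, nat_lit 1, nat_lit 3, nat_lit 4]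
theorem xpow_eq : xpow = powW Cfsg.Agent.Lib.ToddCox.ONX.xw 31 := by decide +kernel
theorem xpowL : ∀ a ∈ xpow, a < 8 := by decide +kernel
theorem xpowB : ∀ b ∈ baseL, tabW Cfsg.Agent.Lib.ToddCox.ON122760.tab xpow b = b := by decide +kernel

def sizes : List ℕ := [58653, 52136, 5586, 6384]
theorem hsum : ∀ d ∈ ssums sizes, (d + 1) ∣ 122760 → d = 0 ∨ d + 1 = 122760 := by decide +kernel

theorem main : IsSimpleGroup (PresentedGroup Cfsg.Agent.Lib.ToddCox.ON122760.rels) ∧ Nat.card (PresentedGroup Cfsg.Agent.Lib.ToddCox.ON122760.rels) = 460815505920 := by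
  obtain ⟨ρ, hρ⟩ := Cfsg.Agent.Lib.ToddCox.ON122760.rep_exists
  have hc := card_bd
  have hl := low hρ
  obtain ⟨hcard, hinj⟩ := card_and_faithful hc.1 hc.2 hl (fun w _ => ⟨_, rfl⟩)
  have hfin : Finite (PresentedGroup Cfsg.Agent.Lib.ToddCox.ON122760.rels) := Nat.finite_of_card_ne_zero (by rw [hcard]; norm_num)
  have hnt : Nontrivial (PresentedGroup Cfsg.Agent.Lib.ToddCox.ON122760.rels) := by
    rw [← Finite.one_lt_card_iff_nontrivial, hcard]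
    norm_num
  obtain ⟨_, hb1⟩ := block_facts (d := 17) Cfsg.Agent.Lib.ToddCox.ON122760.t6 (by norm_num) Cfsg.Agent.Lib.ToddCox.ON122760.bk1
  obtain ⟨_, hb2⟩ := block_facts (d := 17) Cfsg.Agent.Lib.ToddCox.ON122760.t6 (by norm_num) Cfsg.Agent.Lib.ToddCox.ON122760.bk2
  obtain ⟨_, hb3⟩ := block_facts (d := 17) Cfsg.Agent.Lib.ToddCox.ON122760.t6 (by norm_num) Cfsg.Agent.Lib.ToddCox.ON122760.bk3
  obtain ⟨_, hb4⟩ := block_facts (d := 17) Cfsg.Agent.Lib.ToddCox.ON122760.t6 (by norm_num) Cfsg.Agent.Lib.ToddCox.ON122760.bk4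
  have hconn : BlocksConn ρ (subG Cfsg.Agent.Lib.ToddCox.ON122760.rels Cfsg.Agent.Lib.ToddCox.ON122760.Sl) sizes 1 := ⟨conn_of_tables hρ hb1, ⟨conn_of_tables hρ hb2, ⟨conn_of_tables hρ hb3, ⟨conn_of_tables hρ hb4, trivial⟩⟩⟩⟩
  have hxp : x ^ 31 = 1 := by
    rw [← wordVal_powW, ← xpow_eq]
    exact word_one_of hρ hinj hcard xpowL xpowB
  refine ⟨simple_of_rep ρ hinj (by norm_num) (subG Cfsg.Agent.Lib.ToddCox.ON122760.rels Cfsg.Agent.Lib.ToddCox.ON122760.Sl) (subG_fix hρ Cfsg.Agent.Lib.ToddCox.ON122760.fix0)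
    (rep_trans hρ (by norm_num) Cfsg.Agent.Lib.ToddCox.ON122760.reach) sizes (by norm_num [sizes]) hconn hsum x 31 1 (by norm_num) hxp (by norm_num)
    (by rw [hcard]; norm_num) hcl, hcard⟩

end Cfsg.Agent.Lib.ToddCox.ONO
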